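import Cfsg.Agent.Unitary.ProjectiveElements
import Cfsg.Agent.Unitary.Spectrum
import Cfsg.Agent.GLOrders.SpectrumThree

/-! The element orders of `PSU₃(q)`, `q` odd. -/

set_option autoImplicit false

namespace CfsgLib.PSUThree

open Matrix Polynomial UniqueFactorizationMonoid CfsgLib.Unitary

variable {F : Type*} [Field F]

/-- The upper bound on the level of matrices. -/
theorem exists_scalar_pow [Fintype F] [DecidableEq F] (q : ℕ) (hF : Fintype.card F = q ^ 2) (σ : F →+* F)
    (hσ : ∀ x, σ x = x ^ q) (hσ2 : ∀ x, σ (σ x) = x) (p e : ℕ) [Fact p.Prime] [CharP F p] (hqe : q = p ^ e)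
    (hq : 2 ≤ q) (hp : 3 ≤ p) (g : Matrix (Fin 3) (Fin 3) F) (hU : IsU σ g) (hdet : g.det = 1) :
    ∃ k, (k = q + 1 ∨ k = (q + 1) / Nat.gcd 3 (q + 1) * p ∨ k = (q ^ 2 - 1) / Nat.gcd 3 (q + 1) ∨ k = uM q 3) ∧
      ∃ c : F, g ^ k = c • (1 : Matrix (Fin 3) (Fin 3) F) := by
  set d := Nat.gcd 3 (q + 1) with hd
  obtain ⟨hmem, hprod, hdeg, hcst, hmap⟩ := factors_spec σ hσ2 g hU
  set s := normalizedFactors g.charpoly with hs
  obtain ⟨hd3, hdq⟩ : d ∣ 3 ∧ d ∣ q + 1 := ⟨Nat.gcd_dvd_left _ _, Nat.gcd_dvd_right _ _⟩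
  have hd0 : 0 < d := Nat.gcd_pos_of_pos_left _ (by norm_num)
  have hdeg1 : ∀ f ∈ s, 1 ≤ f.natDegree := fun f hf => (hmem f hf).1.natDegree_pos
  have hsq : q ^ 2 - 1 = (q + 1) * (q - 1) := by rw [← Nat.sq_sub_sq, one_pow]
  by_cases hbig : ∃ f ∈ s, 2 ≤ f.natDegree
  · obtain ⟨f, hf, hf2⟩ := hbig
    obtain ⟨hi, hm, h0⟩ := hmem f hf
    have : Fact (Irreducible f) := ⟨hi⟩
    obtain ⟨t, ht⟩ := Multiset.exists_cons_of_mem hf
    rw [ht, Multiset.map_cons, Multiset.sum_cons] at hdeg
    have ht1 : ∀ h ∈ t, h.natDegree ≤ 1 := fun h hh => by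
      have h1 := Multiset.le_sum_of_mem (Multiset.mem_map_of_mem natDegree hh)
      omega
    have hself : ust σ f = f := by
      have h1 : ust σ f ∈ s := by rw [← hmap]; exact Multiset.mem_map_of_mem _ hf
      rw [ht, Multiset.mem_cons] at h1
      rcases h1 with h1 | h1
      · exact h1
      · have := ht1 _ h1
        rw [natDegree_ust σ h0] at this
        omega
    obtain ⟨hodd, -⟩ := self_spec q hF σ hσ hσ2 p e hqe h0 hm hself
    have hf3 : f.natDegree = 3 := by obtain ⟨j, hj⟩ := hodd; omega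
    have ht0 : t = 0 := by
      by_contra h
      obtain ⟨h', hh'⟩ := Multiset.exists_mem_of_ne_zero h
      have h1 := Multiset.le_sum_of_mem (Multiset.mem_map_of_mem natDegree hh')
      have h2 := hdeg1 h' (by rw [ht]; exact Multiset.mem_cons_of_mem hh')
      omega
    rw [ht, ht0, hdet, Multiset.map_cons, Multiset.map_zero, Multiset.prod_cons, Multiset.prod_zero, mul_one] at hcst
    have hdvd := dvd_X_pow_uN_sub_one q hF σ hσ hσ2 p e hqe hq hi hm h0 3 1
      (Or.inl ⟨hself, by rw [hf3], by rw [hcst, one_pow]⟩)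
    obtain ⟨ξ, hξ⟩ : ∃ ξ : F, IsPrimitiveRoot ξ d := by
      obtain ⟨w, hw⟩ := IsCyclic.exists_generator (α := Fˣ)
      have hwo : orderOf w = q ^ 2 - 1 := by
        rw [orderOf_eq_card_of_forall_mem_zpowers hw, Nat.card_units, Nat.card_eq_fintype_card, hF]
      have hd' : d ∣ q ^ 2 - 1 := hdq.trans ⟨q - 1, hsq⟩
      have h1 : IsPrimitiveRoot w (q ^ 2 - 1) := hwo ▸ IsPrimitiveRoot.orderOf w
      exact ⟨_, (h1.pow (hwo ▸ orderOf_pos w) (Nat.div_mul_cancel hd').symm).map_of_injective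
        (f := Units.coeHom F) Units.val_injective⟩
    obtain ⟨ζ, hζd⟩ : ∃ ζ : F, f ∣ X ^ uM q 3 - C ζ := by
      rw [← uM_mul q 3, ← hd, mul_comm, pow_mul] at hdvd
      have h1 : ((X : F[X]) ^ uM q 3) ^ d - 1 = ∏ ζ ∈ nthRootsFinset d (1 : F), (X ^ uM q 3 - C ζ) := by
        have h2 := congrArg (fun P : F[X] => P.comp (X ^ uM q 3)) (X_pow_sub_one_eq_prod hd0 hξ)
        simpa [Polynomial.prod_comp] using h2
      rw [h1] at hdvd
      obtain ⟨ζ, -, hd'⟩ := hi.prime.exists_mem_finset_dvd hdvd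
      exact ⟨ζ, hd'⟩
    refine ⟨uM q 3, by tauto, ζ, ?_⟩
    have hall : ∀ f' ∈ s, f' ∣ X ^ uM q 3 - C ζ ∧ s.count f' ≤ 1 := by
      intro f' hf'
      rw [ht, ht0] at hf' ⊢
      rw [Multiset.cons_zero, Multiset.mem_singleton] at hf'
      subst hf'
      exact ⟨hζd, by simp⟩
    have := CfsgLib.GLOrders.pow_eq_scalar_of_factors p g (uM q 3) 1 0 ζ (by simp) (fun f' hf' => (hall f' hf').1)
      (fun f' hf' => (hall f' hf').2)
    simpa using this
  push Not at hbig
  have hlin : ∀ f ∈ s, f = X - C (cst f) := by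
    intro f hf
    obtain ⟨-, hm, -⟩ := hmem f hf
    have h1 : f.natDegree = 1 := by have := hdeg1 f hf; have := hbig f hf; omega
    have h2 := hm.eq_X_add_C h1
    rw [cst, h1, pow_one, neg_one_mul, map_neg, sub_neg_eq_add]
    exact h2
  set R := s.map cst with hR
  have hRc : Multiset.card R = 3 := by
    rw [hR, Multiset.card_map, ← hdeg]
    have : s.map natDegree = Multiset.replicate (Multiset.card s) 1 := by
      rw [← Multiset.map_const']
      exact Multiset.map_congr rfl fun f hf => by have := hdeg1 f hf; have := hbig f hf; omega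
    rw [this, Multiset.sum_replicate, smul_eq_mul, mul_one]
  have hRprod : R.prod = 1 := hcst.trans hdet
  have hRne : ∀ x ∈ R, x ≠ 0 := by
    intro x hx
    obtain ⟨f, hf, rfl⟩ := Multiset.mem_map.1 hx
    exact mul_ne_zero (pow_ne_zero _ (neg_ne_zero.mpr one_ne_zero)) (hmem f hf).2.2
  have hRmap : R.map (fun x => (σ x)⁻¹) = R := by
    have h1 := congrArg (Multiset.map cst) hmap
    rw [Multiset.map_map] at h1
    rw [hR, Multiset.map_map]
    refine Eq.trans ?_ h1
    exact Multiset.map_congr rfl fun f hf => (cst_ust σ (hmem f hf).2.1 (hmem f hf).2.2).symm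
  have hRQ : ∀ x ∈ R, x ^ (q ^ 2) = x := fun x _ => by rw [← hF]; exact FiniteField.pow_card x
  have use : ∀ (L M c : ℕ) (E : F), M ≤ p ^ c → (∀ x ∈ R, x ^ L = E) → (∀ x ∈ R, R.count x ≤ M) →
      ∃ c' : F, g ^ (L * p ^ c) = c' • (1 : Matrix (Fin 3) (Fin 3) F) := by
    intro L M c E hM hx hcount
    refine ⟨_, CfsgLib.GLOrders.pow_eq_scalar_of_factors p g L M c E hM (fun f hf => ?_) (fun f hf => ?_)⟩
    · rw [hlin f hf, dvd_iff_isRoot, IsRoot.def, eval_sub, eval_pow, eval_X, eval_C,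
        hx _ (Multiset.mem_map_of_mem cst hf), sub_self]
    · refine le_trans (le_of_eq ?_) (hcount _ (Multiset.mem_map_of_mem cst hf))
      refine (Multiset.count_map_eq_count cst s ?_ f hf).symm
      intro u hu v hv huv
      rw [hlin u hu, hlin v hv, huv]
  by_cases hfix : ∀ x ∈ R, x ^ (q + 1) = 1
  · by_cases hnd : R.Nodup
    · obtain ⟨c', hc'⟩ := use (q + 1) 1 0 1 (by simp) hfix (fun x _ => Multiset.nodup_iff_count_le_one.1 hnd x)
      exact ⟨q + 1, Or.inl rfl, c', by simpa using hc'⟩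
    · set m := (q + 1) / d with hm
      have hmd : m * d = q + 1 := Nat.div_mul_cancel hdq
      have hpow3 : ∀ x : F, x ^ (q + 1) = 1 → (x ^ m) ^ 3 = 1 := fun x hx => by
        obtain ⟨j, hj⟩ := hd3
        rw [hj, ← pow_mul, ← mul_assoc, hmd, pow_mul, hx, one_pow]
      obtain ⟨a, b, c, habc⟩ := Multiset.card_eq_three.1 hRc
      have hprod3 : a * b * c = 1 := by rw [← hRprod, habc]; simp [mul_assoc]
      have hfix' : a ^ (q + 1) = 1 ∧ b ^ (q + 1) = 1 ∧ c ^ (q + 1) = 1 :=
        ⟨hfix a (by simp [habc]), hfix b (by simp [habc]), hfix c (by simp [habc])⟩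
      have two : ∀ u v : F, u ^ (q + 1) = 1 → u * u * v = 1 → v ^ m = u ^ m := by
        intro u v hu h
        have h3 := hpow3 u hu
        have h4 : (u ^ m * u ^ m) * v ^ m = 1 := by rw [← mul_pow, ← mul_pow, h, one_pow]
        calc v ^ m = (u ^ m) ^ 3 * v ^ m := by rw [h3, one_mul]
          _ = u ^ m * ((u ^ m * u ^ m) * v ^ m) := by ring
          _ = u ^ m := by rw [h4, mul_one]
      have hall : a ^ m = b ^ m ∧ a ^ m = c ^ m := by
        have hrep : a = b ∨ a = c ∨ b = c := by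
          by_contra h
          push Not at h
          apply hnd
          rw [habc]
          simp [h.1, h.2.1, h.2.2]
        rcases hrep with rfl | rfl | rfl
        · exact ⟨rfl, (two a c hfix'.1 hprod3).symm⟩
        · exact ⟨(two a b hfix'.1 (by linear_combination hprod3)).symm, rfl⟩
        · exact ⟨two b a hfix'.2.1 (by linear_combination hprod3), two b a hfix'.2.1 (by linear_combination hprod3)⟩
      obtain ⟨c', hc'⟩ := use m 3 1 (a ^ m) (by simpa using hp) (fun x hx => by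
        rw [habc] at hx
        simp only [Multiset.insert_eq_cons, Multiset.mem_cons, Multiset.mem_singleton] at hx
        rcases hx with rfl | rfl | rfl
        exacts [rfl, hall.1.symm, hall.2.symm]) (fun x _ => hRc ▸ Multiset.count_le_card x R)
      exact ⟨m * p, Or.inr (Or.inl rfl), c', by simpa using hc'⟩
  push Not at hfix
  obtain ⟨x, hxR, hx⟩ := hfix
  have hx0 := hRne x hxR
  set y := (σ x)⁻¹ with hy
  have hyR : y ∈ R := by rw [← hRmap]; exact Multiset.mem_map_of_mem _ hxR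
  have hxy : x ≠ y := fun h => hx (by
    rw [pow_succ, ← hσ]
    conv_lhs => arg 2; rw [h, hy]
    exact mul_inv_cancel₀ ((map_ne_zero σ).2 hx0))
  obtain ⟨t, ht⟩ := Multiset.exists_cons_of_mem hxR
  have hyt : y ∈ t := by
    rw [ht, Multiset.mem_cons] at hyR
    exact hyR.resolve_left (Ne.symm hxy)
  obtain ⟨t', ht'⟩ := Multiset.exists_cons_of_mem hyt
  rw [ht'] at ht
  obtain ⟨z, hz⟩ := Multiset.card_eq_one.1 (show Multiset.card t' = 1 by
    rw [ht] at hRc; simp only [Multiset.card_cons] at hRc; omega)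
  rw [hz] at ht
  have hprod3 : x * y * z = 1 := by rw [← hRprod, ht]; simp [mul_assoc]
  have hxq : x ^ (q ^ 2) = x := hRQ x hxR
  have hyx : y * x ^ q = 1 := by rw [hy, hσ, inv_mul_cancel₀ (pow_ne_zero _ hx0)]
  have hzval : z = x ^ q * x⁻¹ := by
    field_simp
    linear_combination (x ^ q) * hprod3 - x * z * hyx
  have hzx : z ≠ x := by
    intro h
    rw [hzval] at h
    field_simp at h
    have h3 : x ^ (q ^ 2) = x ^ 4 := by rw [sq, pow_mul, h, ← pow_mul, mul_comm, pow_mul, h, ← pow_mul]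
    rw [hxq] at h3
    have h4 : x ^ 3 = 1 := by
      refine mul_left_cancel₀ hx0 ?_
      rw [mul_one]; linear_combination -h3
    apply hxy
    refine mul_right_cancel₀ (pow_ne_zero q hx0) ?_
    rw [hyx, h]
    linear_combination h4
  have hzy : z ≠ y := by
    intro h
    rw [h] at hprod3
    -- `x y² = 1`
    have h1 : x = x ^ q * x ^ q := by linear_combination (x ^ q * x ^ q) * hprod3 - x * (1 + y * x ^ q) * hyx
    have h2 : x ^ q = x ^ 2 := by
      conv_lhs => rw [h1]
      rw [mul_pow, ← pow_mul, ← sq q, hxq, sq]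
    have h4 : x ^ 3 = 1 := by
      refine mul_left_cancel₀ hx0 ?_
      rw [h2] at h1
      rw [mul_one]; linear_combination -h1
    exact hx (by rw [pow_succ, h2, ← pow_succ, h4])
  have hnd : R.Nodup := by
    rw [ht]; simp [hxy, Ne.symm hzx, Ne.symm hzy]
  set L := (q ^ 2 - 1) / d with hL
  have hLd : L * d = q ^ 2 - 1 := Nat.div_mul_cancel (hdq.trans ⟨q - 1, hsq⟩)
  have hEd : (x ^ L) ^ d = 1 := by rw [← pow_mul, hLd, ← hF]; exact FiniteField.pow_card_sub_one_eq_one x hx0
  have hE3 : (x ^ L) ^ 3 = 1 := by obtain ⟨j, hj⟩ := hd3; rw [hj, pow_mul, hEd, one_pow]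
  have hEq : (x ^ L) ^ (q + 1) = 1 := by obtain ⟨j, hj⟩ := hdq; rw [hj, pow_mul, hEd, one_pow]
  have hyL : y ^ L = x ^ L := by
    refine mul_right_cancel₀ (pow_ne_zero q (pow_ne_zero L hx0)) ?_
    rw [← pow_succ', hEq, ← pow_mul, mul_comm L q, pow_mul, ← mul_pow, hyx, one_pow]
  have hzL : z ^ L = x ^ L := by
    have h4 : (x ^ L * x ^ L) * z ^ L = 1 := by
      conv_lhs => arg 1; arg 2; rw [← hyL]
      rw [← mul_pow, ← mul_pow, hprod3, one_pow]
    calc z ^ L = (x ^ L) ^ 3 * z ^ L := by rw [hE3, one_mul]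
      _ = x ^ L * ((x ^ L * x ^ L) * z ^ L) := by ring
      _ = x ^ L := by rw [h4, mul_one]
  obtain ⟨c', hc'⟩ := use L 1 0 (x ^ L) (by simp) (fun w hw => by
    rw [ht] at hw
    simp only [Multiset.mem_cons, Multiset.mem_singleton] at hw
    rcases hw with rfl | rfl | rfl
    exacts [rfl, hyL, hzL]) (fun w _ => Multiset.nodup_iff_count_le_one.1 hnd w)
  exact ⟨L, Or.inr (Or.inr (Or.inl rfl)), c', by simpa using hc'⟩

/-- A diagonal element. -/
def diagMat (a b c : F) : Matrix (Fin 3) (Fin 3) F := !![a, 0, 0; 0, b, 0; 0, 0, c]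

/-- A scaled transvection on the first two coordinates. -/
def tMat (σ : F →+* F) (e a x c : F) : Matrix (Fin 3) (Fin 3) F :=
  !![a * (1 + x), a * x * σ e, 0; a * x * e, a * (1 - x), 0; 0, 0, c]

/-- The torus element with the isotropic eigenvectors `(1, ±e)`. -/
def kMat (e a b c : F) : Matrix (Fin 3) (Fin 3) F :=
  !![(a + b) / 2, (a - b) / (2 * e), 0; e * (a - b) / 2, (a + b) / 2, 0; 0, 0, c]

theorem diagMat_pow (a b c : F) (k : ℕ) : diagMat a b c ^ k = diagMat (a ^ k) (b ^ k) (c ^ k) := by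
  induction k with
  | zero => ext i j; fin_cases i <;> fin_cases j <;> simp [diagMat, Matrix.one_apply]
  | succ k ih =>
    rw [pow_succ, ih]; ext i j
    fin_cases i <;> fin_cases j <;> simp [diagMat, Matrix.mul_apply, Fin.sum_univ_three, pow_succ]

theorem tMat_pow (σ : F →+* F) (e : F) (he : e * σ e = -1) (a x c : F) (k : ℕ) :
    tMat σ e a x c ^ k = tMat σ e (a ^ k) (k * x) (c ^ k) := by
  induction k with
  | zero => ext i j; fin_cases i <;> fin_cases j <;> simp [tMat, Matrix.one_apply]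
  | succ k ih =>
    rw [pow_succ, ih]; ext i j
    fin_cases i <;> fin_cases j <;> simp [tMat, Matrix.mul_apply, Fin.sum_univ_three, pow_succ]
    · linear_combination (a ^ k * (k : F) * x * a * x) * he
    · ring
    · ring
    · linear_combination (a ^ k * (k : F) * x * a * x) * he

theorem kMat_pow (e : F) (he : e ≠ 0) (h2 : (2 : F) ≠ 0) (a b c : F) (k : ℕ) :
    kMat e a b c ^ k = kMat e (a ^ k) (b ^ k) (c ^ k) := by
  induction k with
  | zero => ext i j; fin_cases i <;> fin_cases j <;> simp [kMat] <;> field_simp <;> ring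
  | succ k ih =>
    rw [pow_succ, ih]; ext i j
    fin_cases i <;> fin_cases j <;> simp [kMat, Matrix.mul_apply, Fin.sum_univ_three, pow_succ] <;> field_simp <;> ring

theorem isU_diagMat (σ : F →+* F) {a b c : F} (ha : σ a * a = 1) (hb : σ b * b = 1) (hc : σ c * c = 1) :
    IsU σ (diagMat a b c) := by
  show adj σ _ * _ = 1
  ext i j
  fin_cases i <;> fin_cases j <;> simp [diagMat, adj, Matrix.mul_apply, Fin.sum_univ_three, ha, hb, hc]

theorem isU_tMat (σ : F →+* F) (hσ2 : ∀ x, σ (σ x) = x) {e a x c : F} (he : e * σ e = -1) (ha : σ a * a = 1)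
    (hx : x + σ x = 0) (hc : σ c * c = 1) : IsU σ (tMat σ e a x c) := by
  show adj σ _ * _ = 1
  ext i j
  fin_cases i <;> fin_cases j <;>
    simp [tMat, adj, Matrix.mul_apply, Fin.sum_univ_three, hσ2, hc]
  · linear_combination (1 + x + σ x + σ x * x + σ x * x * (e * σ e)) * ha + hx + σ x * x * he
  · linear_combination (σ e * (x + σ x)) * ha + σ e * hx
  · linear_combination (e * (x + σ x)) * ha + e * hx
  · linear_combination (σ x * x * (e * σ e) + 1 - x - σ x + σ x * x) * ha - hx + σ x * x * he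

theorem isU_kMat (σ : F →+* F) {e a b c : F} (h2 : (2 : F) ≠ 0) (he : e * σ e = -1) (hab : a * σ b = 1)
    (hba : b * σ a = 1) (hc : σ c * c = 1) : IsU σ (kMat e a b c) := by
  have he0 : e ≠ 0 := fun h => by rw [h, zero_mul] at he; norm_num at he
  have hse : σ e = -1 / e := by field_simp; linear_combination he
  have hs2 : σ 2 = 2 := map_ofNat σ 2
  show adj σ _ * _ = 1
  ext i j
  fin_cases i <;> fin_cases j <;>
    simp [kMat, adj, Matrix.mul_apply, Fin.sum_univ_three, map_div₀, hse, hs2, hc] <;>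
    field_simp <;>
    first
      | linear_combination 2 * hab + 2 * hba
      | linear_combination -2 * hab - 2 * hba
      | linear_combination 2 * hab - 2 * hba
      | linear_combination 2 * hba - 2 * hab
      | linear_combination 2 * e * hab - 2 * e * hba
      | linear_combination 2 * e * hba - 2 * e * hab
      | ring

theorem exists_order_dvd [Fintype F] (q : ℕ) (hF : Fintype.card F = q ^ 2) (σ : F →+* F) (hσ : ∀ x, σ x = x ^ q)
    (hσ2 : ∀ x, σ (σ x) = x) (M : Matrix (Fin 3) (Fin 3) F) (hdet : M.det = 1) (hU : IsU σ M) (L : ℕ)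
    (hM : ∀ (k : ℕ) (t : F), M ^ k = t • (1 : Matrix (Fin 3) (Fin 3) F) → L ∣ k) :
    ∃ x : Cfsg.PSU 3 F q, L ∣ orderOf x := by
  obtain ⟨g, hg⟩ := exists_SU σ q hσ hσ2 M hdet hU
  refine ⟨(g : Cfsg.PSU 3 F q), ?_⟩
  obtain ⟨t, ht⟩ := (mk_pow_eq_one_iff q hF le_rfl g _).mp (pow_orderOf_eq_one (g : Cfsg.PSU 3 F q))
  exact hM _ t (hg ▸ ht)

theorem spectrum [Fintype F] (p : ℕ) [Fact p.Prime] [CharP F p] (hp2 : p ≠ 2) (q : ℕ)
    (hF : Fintype.card F = q ^ 2) :
    Set.range (orderOf : Cfsg.PSU 3 F q → ℕ) =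
      {s : ℕ | s ∣ q + 1} ∪ {s : ℕ | s ∣ p * (q + 1) / Nat.gcd 3 (q + 1)} ∪
        {s : ℕ | s ∣ (q ^ 2 - 1) / Nat.gcd 3 (q + 1)} ∪ {s : ℕ | s ∣ (q ^ 2 - q + 1) / Nat.gcd 3 (q + 1)} := by
  classical
  obtain ⟨σ, hσ, hσ2, hσne, hq2⟩ := exists_conj q hF
  obtain ⟨p', e, hp', hchar, hqe, he0⟩ := exists_prime_pow q hF
  have : p' = p := CharP.eq F hchar ‹CharP F p›
  subst this
  have hp3 : 3 ≤ p' := by have := hp'.two_le; omega
  have hqodd : Odd q := hqe ▸ (hp'.odd_of_ne_two hp2).pow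
  have h2 : (2 : F) ≠ 0 := fun h => hp2 ((Nat.prime_dvd_prime_iff_eq hp' Nat.prime_two).1
    ((CharP.cast_eq_zero_iff F p' 2).1 (by exact_mod_cast h)))
  have huM : uM q 3 = (q ^ 2 - q + 1) / Nat.gcd 3 (q + 1) := by
    have h1 : uH q 3 = ((q ^ 2 - q + 1 : ℕ) : ℤ) := by
      have hle : q ≤ q ^ 2 := Nat.le_self_pow two_ne_zero q
      rw [uH, Finset.sum_range_succ, Finset.sum_range_succ, Finset.sum_range_one]
      push_cast [Nat.cast_sub hle]
      ring
    rw [uM, uN, h1, Int.natAbs_natCast]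
  set d := Nat.gcd 3 (q + 1) with hd
  obtain ⟨hd3, hdq⟩ : d ∣ 3 ∧ d ∣ q + 1 := ⟨Nat.gcd_dvd_left _ _, Nat.gcd_dvd_right _ _⟩
  have hd0 : 0 < d := Nat.gcd_pos_of_pos_left _ (by norm_num)
  have hB : p' * (q + 1) / d = (q + 1) / d * p' := by rw [Nat.mul_div_assoc _ hdq, mul_comm]
  ext s
  constructor
  · rintro ⟨x, rfl⟩
    obtain ⟨g, rfl⟩ := QuotientGroup.mk_surjective x
    obtain ⟨k, hk, c, hc⟩ := exists_scalar_pow q hF σ hσ hσ2 p' e hqe hq2 hp3 _
      ((mem_SU_iff σ q hσ hσ2 _).mp g.2) (g : Matrix.SpecialLinearGroup (Fin 3) F).2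
    have hdvd := orderOf_dvd_of_pow_eq_one ((mk_pow_eq_one_iff q hF le_rfl g k).mpr ⟨c, hc⟩)
    simp only [Set.mem_union, Set.mem_setOf_eq]
    rw [hB, ← huM]
    rcases hk with rfl | rfl | rfl | rfl <;> tauto
  · have hgen : ∀ L : ℕ, (∃ x : Cfsg.PSU 3 F q, L ∣ orderOf x) → s ∣ L → s ∈ Set.range (orderOf : Cfsg.PSU 3 F q → ℕ) := by
      rintro L ⟨x, hx⟩ hs
      exact CfsgLib.GLOrders.exists_orderOf_eq_of_dvd (orderOf_pos x) (hs.trans hx)
    obtain ⟨w, hw⟩ := IsCyclic.exists_generator (α := Fˣ)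
    have hwo : orderOf w = (q + 1) * (q - 1) := by
      rw [orderOf_eq_card_of_forall_mem_zpowers hw, Nat.card_units, Nat.card_eq_fintype_card, hF, ← Nat.sq_sub_sq,
        one_pow]
    have hw0 : (w : F) ≠ 0 := w.ne_zero
    have hwpow : ∀ k, (w : F) ^ k = 1 → (q + 1) * (q - 1) ∣ k := fun k hk => by
      rw [← hwo]
      exact orderOf_dvd_of_pow_eq_one (Units.ext (by rw [Units.val_pow_eq_pow_val, Units.val_one, hk]))
    have hwall : (w : F) ^ ((q + 1) * (q - 1)) = 1 := by
      rw [← hwo, ← Units.val_pow_eq_pow_val, pow_orderOf_eq_one, Units.val_one]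
    obtain ⟨j, hj⟩ := hqodd
    set a : F := (w : F) ^ (q - 1) with ha
    have haN : σ a * a = 1 := by rw [hσ, ← pow_succ, ha, ← pow_mul, mul_comm, hwall]
    have hapow : ∀ k, a ^ k = 1 → q + 1 ∣ k := fun k hk => by
      rw [ha, ← pow_mul] at hk
      have := hwpow _ hk
      rw [mul_comm (q + 1)] at this
      exact Nat.dvd_of_mul_dvd_mul_left (by omega) this
    have hhalf : (w : F) ^ ((q + 1) * j) = -1 := by
      have h1 : (w : F) ^ ((q + 1) * j) * (w : F) ^ ((q + 1) * j) = 1 := by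
        rw [← pow_add, ← mul_add, show j + j = q - 1 by omega, hwall]
      refine (mul_self_eq_one_iff.1 h1).resolve_left fun h => ?_
      have := Nat.le_of_dvd (Nat.mul_pos (by omega) (by omega)) (hwpow _ h)
      rw [show q - 1 = 2 * j by omega] at this
      nlinarith
    set ee : F := (w : F) ^ j with hee
    have heN : ee * σ ee = -1 := by rw [hσ, ← pow_succ', hee, ← pow_mul, mul_comm, hhalf]
    set x : F := (w : F) ^ (j + 1) with hx
    have hx0 : x ≠ 0 := pow_ne_zero _ hw0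
    have hxN : x + σ x = 0 := by
      have : σ x = x * (w : F) ^ ((j + 1) * (q - 1)) := by
        rw [hσ, hx, ← pow_mul, ← pow_add]
        congr 1
        rw [show q - 1 = 2 * j by omega, hj]; ring
      rw [this, show (j + 1) * (q - 1) = (q + 1) * j by rw [show q - 1 = 2 * j by omega, hj]; ring, hhalf]
      ring
    simp only [Set.mem_union, Set.mem_setOf_eq]
    rw [hB, ← huM]
    rintro (((hs | hs) | hs) | hs)
    · refine hgen _ (exists_order_dvd q hF σ hσ hσ2 (diagMat a a⁻¹ 1) ?_ ?_ _ fun k t hk => ?_) hs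
      · simp [diagMat, Matrix.det_fin_three, pow_ne_zero _ hw0, ha]
      · exact isU_diagMat σ haN (by rw [map_inv₀, ← mul_inv, haN, inv_one]) (by rw [map_one, one_mul])
      · rw [diagMat_pow, one_pow] at hk
        have h00 := congrFun (congrFun hk 0) 0
        have h22 := congrFun (congrFun hk 2) 2
        simp [diagMat] at h00 h22
        exact hapow k (h00.trans h22.symm)
    · refine hgen _ (exists_order_dvd q hF σ hσ hσ2 (tMat σ ee a x (a⁻¹ ^ 2)) ?_ ?_ _ fun k t hk => ?_) hs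
      · have ha0 : a ≠ 0 := pow_ne_zero _ hw0
        clear_value a x ee
        simp [tMat, Matrix.det_fin_three]
        field_simp
        linear_combination -(x ^ 2) * heN
      · refine isU_tMat σ hσ2 heN haN hxN ?_
        rw [map_pow, map_inv₀, ← mul_pow, ← mul_inv, haN, inv_one, one_pow]
      · rw [tMat_pow σ ee heN] at hk
        have h10 := congrFun (congrFun hk 1) 0
        have h00 := congrFun (congrFun hk 0) 0
        have h22 := congrFun (congrFun hk 2) 2
        simp [tMat] at h10 h00 h22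
        have hee0 : ee ≠ 0 := pow_ne_zero _ hw0
        have hpk : (k : F) = 0 := by
          have ha0 : a ≠ 0 := pow_ne_zero _ hw0
          have he1 : ee ≠ 0 := hee0
          have hxx := hx0
          simp_all
        rw [hpk] at h00
        simp at h00
        have hpdvd : p' ∣ k := (CharP.cast_eq_zero_iff F p' k).1 hpk
        have h3k : q + 1 ∣ 3 * k := by
          refine hapow _ ?_
          have h22' : ((a ^ 2) ^ k)⁻¹ = a ^ k := h22.trans h00.symm
          have ha0 : a ≠ 0 := pow_ne_zero _ hw0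
          have h22'' : (a ^ 2) ^ k * a ^ k = 1 := by rw [← h22']; field_simp
          rw [← h22'', show 3 * k = 2 * k + k by ring, pow_add, pow_mul]
        have hmk : (q + 1) / d ∣ k := by
          have h1 : (q + 1) ∣ Nat.gcd (3 * k) ((q + 1) * k) := Nat.dvd_gcd h3k (dvd_mul_right _ _)
          rw [Nat.gcd_mul_right, ← hd] at h1
          refine Nat.dvd_of_mul_dvd_mul_left hd0 ?_
          rwa [Nat.mul_div_cancel' hdq]
        refine Nat.Coprime.mul_dvd_of_dvd_of_dvd ?_ hmk hpdvd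
        refine Nat.Coprime.coprime_dvd_left (Nat.div_dvd_of_dvd hdq) (Nat.Coprime.symm ?_)
        rw [Nat.Prime.coprime_iff_not_dvd hp']
        intro h
        have h1 : p' ∣ q := hqe ▸ dvd_pow_self p' (by omega)
        exact hp'.one_lt.ne' (Nat.dvd_one.1 ((Nat.dvd_add_right h1).1 h))
    · set b : F := (σ (w : F))⁻¹ with hb
      clear_value b
      have hb0 : σ (w : F) ≠ 0 := (map_ne_zero σ).2 hw0
      refine hgen _ (exists_order_dvd q hF σ hσ hσ2 (kMat ee (w : F) b ((w : F) * b)⁻¹) ?_ ?_ _ fun k t hk => ?_) hs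
      · have hee0 : ee ≠ 0 := pow_ne_zero _ hw0
        have hb1 : b ≠ 0 := hb ▸ inv_ne_zero hb0
        simp [kMat, Matrix.det_fin_three]
        field_simp
        ring
      · refine isU_kMat σ h2 heN ?_ (hb ▸ inv_mul_cancel₀ hb0) ?_
        · rw [hb, map_inv₀, hσ2, mul_inv_cancel₀ hw0]
        · rw [map_inv₀, ← mul_inv, map_mul, hb, map_inv₀, hσ2]
          field_simp
      · have hee0 : ee ≠ 0 := pow_ne_zero _ hw0
        rw [kMat_pow ee hee0 h2] at hk
        have h00 := congrFun (congrFun hk 0) 0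
        have h10 := congrFun (congrFun hk 1) 0
        have h22 := congrFun (congrFun hk 2) 2
        simp [kMat] at h00 h10 h22
        have hwb : (w : F) ^ k = b ^ k := by
          simp [hee0, h2, sub_eq_zero] at h10
          exact h10
        rw [mul_pow, inv_pow, inv_pow] at h22
        rw [← hwb] at h00 h22
        have h00' : (w : F) ^ k = t := by
          field_simp at h00
          exact mul_left_cancel₀ h2 (by linear_combination h00)
        rw [← h00'] at h22
        have hk3 : (w : F) ^ (3 * k) = 1 := by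
          have hwk : (w : F) ^ k ≠ 0 := pow_ne_zero _ hw0
          field_simp at h22
          rw [mul_comm 3 k, pow_mul]
          linear_combination -h22
        have hkq : (w : F) ^ ((q + 1) * k) = 1 := by
          rw [mul_comm, pow_mul, pow_succ]
          nth_rw 2 [hwb]
          rw [← pow_mul, mul_comm k q, pow_mul, ← mul_pow, ← hσ, hb, mul_inv_cancel₀ hb0, one_pow]
        have h1 := Nat.dvd_gcd (hwpow _ hk3) (hwpow _ hkq)
        rw [Nat.gcd_mul_right, ← hd] at h1
        refine Nat.dvd_of_mul_dvd_mul_left hd0 ?_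
        rw [Nat.mul_div_cancel' (hdq.trans ⟨q - 1, by rw [← Nat.sq_sub_sq, one_pow]⟩)]
        rwa [show q ^ 2 - 1 = (q + 1) * (q - 1) by rw [← Nat.sq_sub_sq, one_pow]]
    · exact hgen _ (exists_psu_singer q hF le_rfl) hs

end CfsgLib.PSUThree
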